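import Mathlib
import Cfsg.Agent.Lib.Helper99.GUSP.Defs
import Cfsg.Agent.Lib.Helper99.Symp
import Cfsg.Agent.Lib.Helper94.Symp

/-!
# GUSP (S5976), package [NF]
-/

set_option autoImplicit false

namespace Cfsg.Agent.Lib.Helper24.GUSP

open Matrix Module Cfsg.Agent.Lib.Helper99 Cfsg.Agent.Lib.Helper99.GUSP Cfsg.Agent.Lib.Helper94

universe u

section
variable {F : Type u} [Field F] (d : ℕ)

theorem nf_mulVec_expand (G : Matrix (SI d) (SI d) F) (x : SI d → F) :
    G *ᵥ x = ∑ s, x s • (G *ᵥ Pi.single s 1) := by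
  conv_lhs => rw [pi_eq_sum_univ' x]
  rw [Matrix.mulVec_sum]
  simp only [Matrix.mulVec_smul]

/-- an isometry on the standard basis is an isometry -/
theorem nf_sf_of_basis (G : Matrix (SI d) (SI d) F)
    (h : ∀ s t : SI d, Cfsg.sympForm d F (G *ᵥ Pi.single s 1) (G *ᵥ Pi.single t 1)
      = Cfsg.sympForm d F (Pi.single s 1) (Pi.single t 1)) (v w : SI d → F) :
    Cfsg.sympForm d F (G *ᵥ v) (G *ᵥ w) = Cfsg.sympForm d F v w := by
  rw [nf_mulVec_expand d G v, nf_mulVec_expand d G w]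
  conv_rhs => rw [pi_eq_sum_univ' v, pi_eq_sum_univ' w]
  simp only [sf_sum_left, sf_sum_right, sf_smul_left, sf_smul_right, h]

theorem nf_sf_ll (j k : Fin d) :
    Cfsg.sympForm d F (Pi.single (Sum.inl j) 1) (Pi.single (Sum.inl k) 1) = 0 := by
  rw [sf_eq]
  simp [Pi.single_apply]

theorem nf_sf_rr (j k : Fin d) :
    Cfsg.sympForm d F (Pi.single (Sum.inr j) 1) (Pi.single (Sum.inr k) 1) = 0 := by
  rw [sf_eq]
  simp [Pi.single_apply]

theorem nf_sf_rl (j k : Fin d) :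
    Cfsg.sympForm d F (Pi.single (Sum.inr j) 1) (Pi.single (Sum.inl k) 1)
      = if j = k then 1 else 0 := by
  rw [sf_eq]
  simp [Pi.single_apply]
  exact if_congr eq_comm rfl rfl

theorem nf_sf_lr (j k : Fin d) :
    Cfsg.sympForm d F (Pi.single (Sum.inl j) 1) (Pi.single (Sum.inr k) 1)
      = -(if k = j then 1 else 0) := by
  rw [sf_swap, nf_sf_rl]

theorem nf_alpha0_l (a : F) (j : Fin d) :
    alpha0 d a *ᵥ Pi.single (Sum.inl j) 1 = Pi.single (Sum.inr j) 1 := by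
  rw [Matrix.mulVec_single_one]
  ext (i | i)
  · simp [alpha0, Matrix.col]
  · simp [alpha0, Matrix.col, Matrix.one_apply, Pi.single_apply]

theorem nf_alpha0_r (a : F) (j : Fin d) :
    alpha0 d a *ᵥ Pi.single (Sum.inr j) 1 = a • Pi.single (Sum.inl j) 1 := by
  rw [Matrix.mulVec_single_one]
  ext (i | i)
  · simp [alpha0, Matrix.col, Matrix.one_apply, Pi.single_apply]
  · simp [alpha0, Matrix.col]

end

/-- [NF] -/
theorem pkgNF : PkgNF.{u} := by
  intro hPeel F _ _ hodd d a α ha hα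
  have hR : Fintype.card F % 2 = 1 := Nat.odd_iff.mp hodd
  have h2 : (2 : F) ≠ 0 := by
    apply Ring.two_ne_zero
    intro h
    have := FiniteField.even_card_iff_char_two.mp h
    omega
  have ha0 : a ≠ 0 := by
    rintro rfl
    exact ha ⟨0, by simp⟩
  obtain ⟨u, huc, huo⟩ := hPeel h2 d a α ha0 hα
  have hsk : ∀ v w : SI d → F, Cfsg.sympForm d F (α *ᵥ v) w = - Cfsg.sympForm d F v (α *ᵥ w) :=
    hα.2
  have hαα : ∀ v : SI d → F, α *ᵥ (α *ᵥ v) = a • v := by
    intro v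
    rw [Matrix.mulVec_mulVec, hα.1, Matrix.smul_mulVec, Matrix.one_mulVec]
  -- the two expansions
  have E1 : ∀ (p q : SI d → F) (x y x' y' : F),
      Cfsg.sympForm d F (x • p + y • (α *ᵥ p)) (x' • q + y' • (α *ᵥ q))
        = (x * x' - a * y * y') * Cfsg.sympForm d F p q + y * x' * Cfsg.sympForm d F (α *ᵥ p) q
          - x * y' * Cfsg.sympForm d F (α *ᵥ q) p := by
    intro p q x y x' y'
    simp only [sf_add_left, sf_add_right, sf_smul_left, sf_smul_right]
    have h1 : Cfsg.sympForm d F p (α *ᵥ q) = - Cfsg.sympForm d F (α *ᵥ q) p := sf_swap d _ _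
    have h3 : Cfsg.sympForm d F (α *ᵥ p) (α *ᵥ q) = - (a * Cfsg.sympForm d F p q) := by
      rw [hsk, hαα, sf_smul_right]
    rw [h1, h3]
    ring
  have E2 : ∀ (p q : SI d → F) (x y x' y' : F),
      Cfsg.sympForm d F (α *ᵥ (x • p + y • (α *ᵥ p))) (x' • q + y' • (α *ᵥ q))
        = x * x' * Cfsg.sympForm d F (α *ᵥ p) q - a * y * y' * Cfsg.sympForm d F (α *ᵥ q) p
          + a * (y * x' - x * y') * Cfsg.sympForm d F p q := by
    intro p q x y x' y'
    rw [Matrix.mulVec_add, Matrix.mulVec_smul, Matrix.mulVec_smul, hαα]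
    simp only [sf_add_left, sf_add_right, sf_smul_left, sf_smul_right]
    have h1 : Cfsg.sympForm d F p (α *ᵥ q) = - Cfsg.sympForm d F (α *ᵥ q) p := sf_swap d _ _
    have h3 : Cfsg.sympForm d F (α *ᵥ p) (α *ᵥ q) = - (a * Cfsg.sympForm d F p q) := by
      rw [hsk, hαα, sf_smul_right]
    rw [h1, h3]
    ring
  -- norm surjectivity
  have hnorm : ∀ j : Fin d, ∃ x y : F,
      Cfsg.sympForm d F (α *ᵥ u j) (u j) * (x * x - a * (y * y)) = 1 := by
    intro j
    obtain ⟨x, y, hxy⟩ := FiniteField.exists_root_sum_quadratic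
      (f := (Polynomial.X : Polynomial F) ^ 2)
      (g := Polynomial.C (-a) * Polynomial.X ^ 2 + Polynomial.C 0 * Polynomial.X
        + Polynomial.C (-(Cfsg.sympForm d F (α *ᵥ u j) (u j))⁻¹))
      (Polynomial.degree_X_pow 2) (Polynomial.degree_quadratic (neg_ne_zero.mpr ha0)) hR
    refine ⟨x, y, ?_⟩
    simp only [Polynomial.eval_add, Polynomial.eval_mul, Polynomial.eval_pow, Polynomial.eval_X,
      Polynomial.eval_C, zero_mul, add_zero] at hxy
    have h3 : x * x - a * (y * y) = (Cfsg.sympForm d F (α *ᵥ u j) (u j))⁻¹ := by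
      linear_combination hxy
    rw [h3, mul_inv_cancel₀ (huc j)]
  choose x y hxy using hnorm
  obtain ⟨u', hu'⟩ : ∃ u' : Fin d → (SI d → F), ∀ j, u' j = x j • u j + y j • (α *ᵥ u j) :=
    ⟨_, fun _ => rfl⟩
  have G1 : ∀ j k, Cfsg.sympForm d F (u' j) (u' k) = 0 := by
    intro j k
    by_cases hjk : j = k
    · rw [hjk]; exact sf_self d _
    · rw [hu', hu', E1, (huo j k hjk).1, (huo j k hjk).2, (huo k j (Ne.symm hjk)).2]
      ring
  have G2 : ∀ j k, Cfsg.sympForm d F (α *ᵥ u' j) (u' k) = if j = k then 1 else 0 := by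
    intro j k
    by_cases hjk : j = k
    · rw [if_pos hjk, ← hjk, hu', E2, sf_self, ← hxy j]
      ring
    · rw [if_neg hjk, hu', hu', E2, (huo j k hjk).1, (huo j k hjk).2, (huo k j (Ne.symm hjk)).2]
      ring
  have G3 : ∀ j k, Cfsg.sympForm d F (u' j) (α *ᵥ u' k) = -(if k = j then 1 else 0) := by
    intro j k
    rw [sf_swap, G2]
  have G4 : ∀ j k, Cfsg.sympForm d F (α *ᵥ u' j) (α *ᵥ u' k) = 0 := by
    intro j k
    rw [hsk, hαα, sf_smul_right, G1, mul_zero, neg_zero]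
  -- the matrix
  obtain ⟨G, hG⟩ : ∃ G : Matrix (SI d) (SI d) F, G = Matrix.of
      (fun i s => Sum.elim (fun j => u' j i) (fun j => (α *ᵥ u' j) i) s) := ⟨_, rfl⟩
  have hGl : ∀ j, G *ᵥ Pi.single (Sum.inl j) 1 = u' j := by
    intro j
    rw [Matrix.mulVec_single_one, hG]
    rfl
  have hGr : ∀ j, G *ᵥ Pi.single (Sum.inr j) 1 = α *ᵥ u' j := by
    intro j
    rw [Matrix.mulVec_single_one, hG]
    rfl
  have hiso : ∀ v w : SI d → F, Cfsg.sympForm d F (G *ᵥ v) (G *ᵥ w) = Cfsg.sympForm d F v w := by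
    apply nf_sf_of_basis
    rintro (j | j) (k | k)
    · rw [hGl, hGl, G1, nf_sf_ll]
    · rw [hGl, hGr, G3, nf_sf_lr]
    · rw [hGr, hGl, G2, nf_sf_rl]
    · rw [hGr, hGr, G4, nf_sf_rr]
  have hinj : Function.Injective G.mulVec := by
    intro v w hvw
    have hvw' : G *ᵥ v = G *ᵥ w := hvw
    have h0 : v - w = 0 := sympB_nondeg d (v - w) (fun z => by
      rw [sympB_apply, ← hiso, Matrix.mulVec_sub, hvw', sub_self, sf_zero_left])
    exact sub_eq_zero.mp h0
  obtain ⟨g, hg⟩ := Matrix.mulVec_injective_iff_isUnit.mp hinj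
  refine ⟨g, ?_, ?_⟩
  · rw [mem_spGL_iff]
    intro v w
    rw [hg]
    exact hiso v w
  · rw [hg]
    apply Matrix.ext_of_mulVec_single
    intro s
    rw [← Matrix.mulVec_mulVec, ← Matrix.mulVec_mulVec]
    rcases s with j | j
    · rw [hGl, nf_alpha0_l, hGr]
    · rw [hGr, nf_alpha0_r, Matrix.mulVec_smul, hGl, hαα]

end Cfsg.Agent.Lib.Helper24.GUSP
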