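import Mathlib
import Cfsg.Agent.Lib.Helper99.GUSP.Defs
import Cfsg.Agent.Lib.Helper99.NdGeom
import Cfsg.Agent.Lib.Helper99.Symp

/-!
# GUSP (S5976), package [PEEL]
-/

set_option autoImplicit false

namespace Cfsg.Agent.Lib.Helper24.GUSP

open Matrix Module Cfsg.Agent.Lib.Helper99 Cfsg.Agent.Lib.Helper99.GUSP

universe u

theorem peel_aux {F : Type u} [Field F] (h2 : (2 : F) ≠ 0) (d : ℕ) (b : F)
    (β : Matrix (SI d) (SI d) F) (hb : b ≠ 0) (hβ : IsAlpha d b β) :
    ∀ (n : ℕ) (U : Submodule F (SI d → F)), (∀ w ∈ U, β *ᵥ w ∈ U) →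
      NgNd (sympB (F := F) d) U → finrank F U = 2 * n →
      ∃ u : Fin n → (SI d → F), (∀ j, u j ∈ U) ∧
        (∀ j, sympB (F := F) d (β *ᵥ u j) (u j) ≠ 0) ∧
        ∀ j k, j ≠ k → sympB (F := F) d (u j) (u k) = 0 ∧
          sympB (F := F) d (β *ᵥ u j) (u k) = 0 := by
  intro n
  induction n with
  | zero =>
    intro U _ _ _
    exact ⟨Fin.elim0, fun j => j.elim0, fun j => j.elim0, fun j => j.elim0⟩
  | succ n ih =>
    intro U hUβ hUn hfin
    obtain ⟨B, hB⟩ : ∃ B : LinearMap.BilinForm F (SI d → F), B = sympB (F := F) d := ⟨_, rfl⟩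
    rw [← hB] at hUn ⊢
    have hA : ∀ x, B x x = 0 := by rw [hB]; exact sympB_isAlt d
    have hskew : ∀ x y, B (β *ᵥ x) y = - B x (β *ᵥ y) := by
      intro x y
      rw [hB, sympB_apply, sympB_apply]
      exact hβ.2 x y
    have hsw : ∀ x y, B x y = - B y x := ng_neg B hA
    have hββ : ∀ x, β *ᵥ (β *ᵥ x) = b • x := by
      intro x
      rw [Matrix.mulVec_mulVec, hβ.1, Matrix.smul_mulVec, Matrix.one_mulVec]
    -- (i)
    have h1 : ∃ u ∈ U, B (β *ᵥ u) u ≠ 0 := by
      by_contra hcon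
      push Not at hcon
      have h3 : ∀ u ∈ U, ∀ v ∈ U, B (β *ᵥ u) v = 0 := by
        intro u hu v hv
        have h4 := hcon (u + v) (U.add_mem hu hv)
        simp only [Matrix.mulVec_add, map_add, LinearMap.add_apply, hcon u hu, hcon v hv,
          zero_add, add_zero] at h4
        have h5 : B (β *ᵥ v) u = B (β *ᵥ u) v := by rw [hskew, ← hsw]
        rw [h5, ← two_mul] at h4
        exact (mul_eq_zero.mp h4).resolve_left h2
      have h7 : ∀ u ∈ U, u = 0 := by
        intro u hu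
        have h8 : β *ᵥ u = 0 := hUn _ (hUβ u hu) (fun v hv => h3 u hu v hv)
        have h9 := hββ u
        rw [h8, Matrix.mulVec_zero] at h9
        exact (smul_eq_zero.mp h9.symm).resolve_left hb
      have hbot : U = ⊥ := by
        rw [eq_bot_iff]
        intro u hu
        rw [Submodule.mem_bot]
        exact h7 u hu
      rw [hbot, finrank_bot] at hfin
      omega
    obtain ⟨u, hu, huc⟩ := h1
    -- (ii)
    have hPU : Submodule.span F {u, β *ᵥ u} ≤ U := ng_span_pair_le U hu (hUβ u hu)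
    have huβ : B u (β *ᵥ u) ≠ 0 := by
      rw [hsw]
      exact neg_ne_zero.mpr huc
    obtain ⟨hPn, hPd⟩ := ng_plane B hA u (β *ᵥ u) huβ
    have huP : u ∈ Submodule.span F {u, β *ᵥ u} := Submodule.subset_span (by simp)
    have hβuP : β *ᵥ u ∈ Submodule.span F {u, β *ᵥ u} := Submodule.subset_span (by simp)
    have hPβ : ∀ p ∈ Submodule.span F {u, β *ᵥ u}, β *ᵥ p ∈ Submodule.span F {u, β *ᵥ u} := by
      intro p hp
      obtain ⟨s, t, rfl⟩ := Submodule.mem_span_pair.mp hp
      rw [Matrix.mulVec_add, Matrix.mulVec_smul, Matrix.mulVec_smul, hββ]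
      exact Submodule.add_mem _ (Submodule.smul_mem _ _ hβuP)
        (Submodule.smul_mem _ _ (Submodule.smul_mem _ _ huP))
    -- (iii)
    have hU'β : ∀ w ∈ ngPerp B U (Submodule.span F {u, β *ᵥ u}),
        β *ᵥ w ∈ ngPerp B U (Submodule.span F {u, β *ᵥ u}) := by
      intro w hw
      refine ⟨hUβ w hw.1, fun p hp => ?_⟩
      have h3 := hskew p w
      rw [hw.2 _ (hPβ p hp)] at h3
      exact neg_eq_zero.mp h3.symm
    have hU'n : NgNd B (ngPerp B U (Submodule.span F {u, β *ᵥ u})) :=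
      ng_perp_nd B hA U _ hUn hPn hPU
    have hU'd : finrank F (ngPerp B U (Submodule.span F {u, β *ᵥ u})) = 2 * n := by
      have := ng_perp_finrank B hA U _ hPn hPU
      omega
    subst hB
    obtain ⟨u', hu'U, hu'c, hu'o⟩ := ih _ hU'β hU'n hU'd
    have h0k : ∀ k, sympB (F := F) d u (u' k) = 0 ∧
        sympB (F := F) d (β *ᵥ u) (u' k) = 0 := fun k =>
      ⟨(hu'U k).2 u huP, (hu'U k).2 _ hβuP⟩
    refine ⟨Fin.cons u u', ?_, ?_, ?_⟩
    · intro j
      rcases Fin.eq_zero_or_eq_succ j with rfl | ⟨j', rfl⟩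
      · rw [Fin.cons_zero]; exact hu
      · rw [Fin.cons_succ]; exact (hu'U j').1
    · intro j
      rcases Fin.eq_zero_or_eq_succ j with rfl | ⟨j', rfl⟩
      · rw [Fin.cons_zero]; exact huc
      · rw [Fin.cons_succ]; exact hu'c j'
    · intro j k hjk
      rcases Fin.eq_zero_or_eq_succ j with rfl | ⟨j', rfl⟩
      · rcases Fin.eq_zero_or_eq_succ k with rfl | ⟨k', rfl⟩
        · exact absurd rfl hjk
        · rw [Fin.cons_zero, Fin.cons_succ]
          exact h0k k'
      · rcases Fin.eq_zero_or_eq_succ k with rfl | ⟨k', rfl⟩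
        · rw [Fin.cons_zero, Fin.cons_succ]
          constructor
          · rw [hsw, (h0k j').1, neg_zero]
          · rw [hskew, ← hsw]
            exact (h0k j').2
        · rw [Fin.cons_succ, Fin.cons_succ]
          exact hu'o j' k' (fun h => hjk (by rw [h]))

/-- [PEEL] -/
theorem pkgPeel : PkgPeel.{u} := by
  intro F _ h2 d b β hb hβ
  have hfin : finrank F (⊤ : Submodule F (SI d → F)) = 2 * d := by
    rw [finrank_top, Module.finrank_fintype_fun_eq_card, Fintype.card_sum, Fintype.card_fin]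
    omega
  obtain ⟨u, -, h1, h2'⟩ := peel_aux h2 d b β hb hβ d ⊤ (fun _ _ => Submodule.mem_top)
    (fun u _ h => sympB_nondeg d u (fun v => h v Submodule.mem_top)) hfin
  refine ⟨u, fun j => ?_, fun j k hjk => ?_⟩
  · have := h1 j
    rwa [sympB_apply] at this
  · have := h2' j k hjk
    rwa [sympB_apply, sympB_apply] at this

end Cfsg.Agent.Lib.Helper24.GUSP
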